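import Mathlib
import Cfsg.Agent.CharLib.L.Linear

/-! Burnside–Brauer: every irreducible character is a constituent of a small power of a faithful character. -/

set_option autoImplicit false

namespace Cfsg.Agent.CharLib.L

open Module Cfsg Cfsg.Agent.CharLib Polynomial
open scoped ComplexConjugate

theorem burnside_brauer {G : Type*} [Group G] [Fintype G] {V : Type*} [AddCommGroup V] [Module ℂ V]
    [FiniteDimensional ℂ V] (ρ : Representation ℂ G V) (hfaithful : Function.Injective ρ)
    (ψ : G → ℂ) (hψ : IsIrrCharacter G ψ) :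
    ∃ i : ℕ, i < Nat.card (Set.range ρ.character) ∧
      classInner (fun g => ρ.character g ^ i) ψ ≠ 0 := by
  classical
  set χ := ρ.character with hχ
  let vals : Finset ℂ := Finset.univ.image χ
  have hcard : Nat.card (Set.range χ) = vals.card := by
    rw [← Set.ncard_coe_finset, Nat.card_coe_set_eq]
    congr 1
    ext x; simp [vals]
  have h1mem : χ 1 ∈ vals := Finset.mem_image_of_mem _ (Finset.mem_univ _)
  let P : ℂ[X] := ∏ a ∈ vals.erase (χ 1), (X - C a)
  have hdeg : P.natDegree = vals.card - 1 := by
    rw [natDegree_finset_prod_X_sub_C_eq_card, Finset.card_erase_of_mem h1mem]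
  have hpos : 0 < vals.card := Finset.card_pos.mpr ⟨_, h1mem⟩
  by_contra hcon
  push Not at hcon
  have hGne : (Nat.card G : ℂ) ≠ 0 := by exact_mod_cast Nat.card_pos.ne'
  have hzero : ∀ i, i < vals.card → ∑ g : G, χ g ^ i * conj (ψ g) = 0 := by
    intro i hi
    have := hcon i (hcard ▸ hi)
    rw [classInner] at this
    rcases mul_eq_zero.mp this with h | h
    · exact absurd (inv_eq_zero.mp h) hGne
    · exact h
  have hsum : ∑ g : G, P.eval (χ g) * conj (ψ g) = 0 := by
    simp only [eval_eq_sum_range, Finset.sum_mul]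
    rw [Finset.sum_comm]
    refine Finset.sum_eq_zero fun i hi => ?_
    have hi' : i < vals.card := by
      have := Finset.mem_range.mp hi
      omega
    simp only [mul_assoc]
    rw [← Finset.mul_sum, hzero i hi', mul_zero]
  have hev : ∀ g : G, g ≠ 1 → P.eval (χ g) = 0 := by
    intro g hg
    have hne : χ g ≠ χ 1 := by
      intro h
      rw [hχ, Representation.char_one] at h
      have := (character_eq_finrank_iff ρ g).mp h
      apply hg
      apply hfaithful
      rw [this, map_one]; rfl
    simp only [P, eval_prod, eval_sub, eval_X, eval_C]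
    refine Finset.prod_eq_zero (i := χ g) ?_ (sub_self _)
    exact Finset.mem_erase.mpr ⟨hne, Finset.mem_image_of_mem _ (Finset.mem_univ _)⟩
  rw [Finset.sum_eq_single 1 (fun g _ hg => by rw [hev g hg, zero_mul])
    (fun h => absurd (Finset.mem_univ _) h)] at hsum
  rcases mul_eq_zero.mp hsum with h | h
  · simp only [P, eval_prod, eval_sub, eval_X, eval_C] at h
    obtain ⟨a, ha, ha0⟩ := Finset.prod_eq_zero_iff.mp h
    exact (Finset.mem_erase.mp ha).1 (sub_eq_zero.mp ha0).symm
  · have := irr_apply_one_ne_zero (⟨ψ, hψ⟩ : IrrCharacter G)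
    exact this ((map_eq_zero _).mp h)

end Cfsg.Agent.CharLib.L
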