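import Mathlib
import Cfsg.Agent.CharLib.L.Linear
import Cfsg.Agent.S0065
import Cfsg.Agent.S0136

/-! A p-group has a faithful irreducible representation iff its centre is cyclic. -/

set_option autoImplicit false

namespace Cfsg.Agent.CharLib.L

open Module Cfsg Cfsg.Agent.CharLib

variable {G : Type*} [Group G] [Finite G]

/-- the centre of a group with a faithful irreducible representation is cyclic -/
theorem isCyclic_center_of_faithful_irr {V : Type*} [AddCommGroup V] [Module ℂ V]
    [FiniteDimensional ℂ V] (ρ : Representation ℂ G V) [ρ.IsIrreducible]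
    (hinj : Function.Injective ρ) : IsCyclic (Subgroup.center G) := by
  classical
  have hpos := finrank_pos_of_irreducible ρ
  have hne : (finrank ℂ V : ℂ) ≠ 0 := by exact_mod_cast hpos.ne'
  haveI : Nontrivial V := Module.nontrivial_of_finrank_pos (R := ℂ) hpos
  have hsc : ∀ z : Subgroup.center G, ρ z = ((finrank ℂ V : ℂ)⁻¹ * ρ.character z) • (1 : End ℂ V) := by
    intro z
    obtain ⟨ω, hω⟩ := exists_smul_of_commute ρ (ρ z) (fun h => by
      rw [← map_mul, ← map_mul, (Subgroup.mem_center_iff.mp z.2 h)])
    have : ρ.character z = ω * (finrank ℂ V : ℂ) := by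
      change LinearMap.trace ℂ V (ρ z) = _
      rw [hω, map_smul, LinearMap.trace_one, smul_eq_mul]
    rw [this, hω]
    congr 1
    field_simp
  have hinjsmul : Function.Injective (fun c : ℂ => c • (1 : End ℂ V)) := by
    intro c d hcd
    obtain ⟨v, hv⟩ := exists_ne (0 : V)
    have := LinearMap.congr_fun hcd v
    simp only [LinearMap.smul_apply, Module.End.one_apply] at this
    exact smul_left_injective ℂ hv this
  let f : Subgroup.center G →* ℂ :=
    { toFun := fun z => (finrank ℂ V : ℂ)⁻¹ * ρ.character z
      map_one' := by
        apply hinjsmul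
        simp only
        rw [← hsc 1]; simp
      map_mul' := by
        intro a b
        apply hinjsmul
        simp only
        rw [← hsc (a * b), Subgroup.coe_mul, map_mul, hsc a, hsc b, smul_mul_smul_comm, one_mul] }
  refine isCyclic_of_subgroup_isDomain f ?_
  intro a b hab
  apply Subtype.ext
  apply hinj
  rw [hsc a, hsc b]
  exact congrArg (fun c : ℂ => c • (1 : End ℂ V)) hab

theorem exists_faithful_irr_iff (p : ℕ) [Fact p.Prime] (hG : IsPGroup p G) :
    (∃ (n : ℕ) (ρ : Representation ℂ G (Fin n → ℂ)), ρ.IsIrreducible ∧ Function.Injective ρ) ↔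
      IsCyclic (Subgroup.center G) := by
  classical
  have hpp : p.Prime := Fact.out
  constructor
  · rintro ⟨n, ρ, hirr, hinj⟩
    haveI := hirr
    exact isCyclic_center_of_faithful_irr ρ hinj
  · intro hcyc
    rcases subsingleton_or_nontrivial G with hsub | hnt
    · refine ⟨1, Representation.trivial ℂ G (Fin 1 → ℂ), isIrreducible_of_finrank_eq_one _ (by simp), ?_⟩
      intro a b _
      exact Subsingleton.elim a b
    haveI : Group.IsNilpotent G := hG.isNilpotent
    haveI := Fintype.ofFinite (Subgroup.center G)
    haveI : Nontrivial (Subgroup.center G) := hG.center_nontrivial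
    -- an element of order p in the centre
    have hpdvd : p ∣ Nat.card (Subgroup.center G) := by
      obtain ⟨k, hk⟩ := IsPGroup.iff_card.mp (hG.to_subgroup (Subgroup.center G))
      have hk0 : k ≠ 0 := by
        rintro rfl
        rw [pow_zero] at hk
        have := Finite.one_lt_card (α := Subgroup.center G)
        omega
      rw [hk]; exact dvd_pow_self p hk0
    obtain ⟨z0, hz0⟩ := exists_prime_orderOf_dvd_card' p hpdvd
    -- elements of the centre killed by p are powers of z0
    have hkill : ∀ w : Subgroup.center G, w ^ p = 1 → w ∈ Subgroup.zpowers z0 := by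
      intro w hw
      have hle := IsCyclic.card_pow_eq_one_le (α := Subgroup.center G) hpp.pos
      have hsub : (Finset.univ.filter fun a : Subgroup.center G => a ∈ Subgroup.zpowers z0) ⊆
          (Finset.univ.filter fun a : Subgroup.center G => a ^ p = 1) := by
        intro a ha
        simp only [Finset.mem_filter, Finset.mem_univ, true_and] at ha ⊢
        obtain ⟨k, rfl⟩ := Subgroup.mem_zpowers_iff.mp ha
        rw [← zpow_natCast, ← zpow_mul, mul_comm, zpow_mul, zpow_natCast, ← hz0, pow_orderOf_eq_one, one_zpow]
      have hcardz : (Finset.univ.filter fun a : Subgroup.center G => a ∈ Subgroup.zpowers z0).card = p := by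
        rw [← hz0, ← Nat.card_zpowers, Nat.card_eq_fintype_card, Fintype.card_subtype]
      have heq := Finset.eq_of_subset_of_card_le hsub (by rw [hcardz]; exact hle)
      have : w ∈ (Finset.univ.filter fun a : Subgroup.center G => a ^ p = 1) := by simp [hw]
      rw [← heq] at this
      simpa using this
    have hz0ne : (z0 : G) ≠ 1 := by
      intro h
      have : z0 = 1 := Subtype.ext h
      rw [this, orderOf_one] at hz0
      exact hpp.one_lt.ne hz0
    -- every nontrivial normal subgroup contains z0
    have hcontain : ∀ N : Subgroup G, N.Normal → N ≠ ⊥ → (z0 : G) ∈ N := by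
      intro N hN hNbot
      haveI := hN
      have h1 := Cfsg.Agent.S0065.result N hNbot
      have hp2 : IsPGroup p (N ⊓ Subgroup.center G : Subgroup G) := hG.to_subgroup _
      haveI : Nontrivial (N ⊓ Subgroup.center G : Subgroup G) := (Subgroup.nontrivial_iff_ne_bot _).mpr h1
      have hpd : p ∣ Nat.card (N ⊓ Subgroup.center G : Subgroup G) := by
        obtain ⟨k, hk⟩ := IsPGroup.iff_card.mp hp2
        have hk0 : k ≠ 0 := by
          rintro rfl
          rw [pow_zero] at hk
          have := Finite.one_lt_card (α := (N ⊓ Subgroup.center G : Subgroup G))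
          omega
        rw [hk]; exact dvd_pow_self p hk0
      obtain ⟨w, hw⟩ := exists_prime_orderOf_dvd_card' p hpd
      let w' : Subgroup.center G := ⟨w, w.2.2⟩
      have hw'p : w' ^ p = 1 := by
        apply Subtype.ext
        have : (w : G) ^ p = 1 := by
          have := pow_orderOf_eq_one w
          rw [hw] at this
          exact_mod_cast congrArg Subtype.val this
        simpa [w'] using this
      have hw'mem := hkill w' hw'p
      have hw'ne : w' ≠ 1 := by
        intro h
        have h' : (w : G) = 1 := congrArg (fun x : Subgroup.center G => (x : G)) h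
        have : w = 1 := Subtype.ext h'
        rw [this, orderOf_one] at hw
        exact hpp.one_lt.ne hw
      -- zpowers w' = zpowers z0
      have hcardz : Nat.card (Subgroup.zpowers z0) = p := by rw [Nat.card_zpowers, hz0]
      have hle : Subgroup.zpowers w' ≤ Subgroup.zpowers z0 := (Subgroup.zpowers_le).mpr hw'mem
      have how' : orderOf w' = p := by
        have := orderOf_dvd_of_pow_eq_one hw'p
        rcases (Nat.dvd_prime hpp).mp this with h | h
        · exact absurd (orderOf_eq_one_iff.mp h) hw'ne
        · exact h
      have heq : Subgroup.zpowers w' = Subgroup.zpowers z0 := by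
        apply Subgroup.eq_of_le_of_card_ge hle
        rw [hcardz, Nat.card_zpowers, how']
      have hz0mem : z0 ∈ Subgroup.zpowers w' := by rw [heq]; exact Subgroup.mem_zpowers z0
      obtain ⟨k, hk⟩ := Subgroup.mem_zpowers_iff.mp hz0mem
      have : (z0 : G) = (w : G) ^ k := by
        rw [← hk]; simp [w']
      rw [this]
      exact N.zpow_mem w.2.1 k
    -- a character separating z0 from 1
    have hnc : ¬ IsConj (z0 : G) 1 := fun h => hz0ne (isConj_one_left.mp h)
    rw [Cfsg.Agent.S0136.result] at hnc
    push Not at hnc
    obtain ⟨χ, hχ⟩ := hnc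
    obtain ⟨n, ρ, hirr, hch⟩ := χ.2
    refine ⟨n, ρ, hirr, ?_⟩
    rw [← MonoidHom.ker_eq_bot_iff (ρ : G →* End ℂ (Fin n → ℂ))]
    by_contra hker
    have := hcontain _ (MonoidHom.normal_ker _) hker
    apply hχ
    rw [← hch]
    change LinearMap.trace ℂ _ (ρ z0) = LinearMap.trace ℂ _ (ρ 1)
    have h2 : ρ (z0 : G) = 1 := MonoidHom.mem_ker.mp this
    rw [h2, map_one ρ]

end Cfsg.Agent.CharLib.L
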