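import Mathlib
import Cfsg.Agent.CharLib.L.Linear
import Cfsg.Agent.CharLib.BurnsideSimple

/-! A simple group of order n with more than n/p² classes has abelian Sylow p-subgroups. -/

set_option autoImplicit false

namespace Cfsg.Agent.CharLib.L

open Module Cfsg Cfsg.Agent.CharLib

variable {G : Type*} [Group G] [Finite G]

theorem sylow_comm_of_many_classes [IsSimpleGroup G] (p : ℕ) [Fact p.Prime]
    (hp : p ∣ Nat.card G) (hmany : Nat.card G < p ^ 2 * Nat.card (ConjClasses G)) (P : Sylow p G)
    (a b : G) (ha : a ∈ P) (hb : b ∈ P) : a * b = b * a := by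
  classical
  have hpp : p.Prime := Fact.out
  have hcomm_of : (∀ x y : (P : Subgroup G), x * y = y * x) → a * b = b * a := by
    intro h
    have := congrArg Subtype.val (h ⟨a, ha⟩ ⟨b, hb⟩)
    simpa using this
  apply hcomm_of
  by_cases hp2 : p ^ 2 ∣ Nat.card G
  swap
  · -- Sylow subgroup of order p
    have hcard := P.card_eq_multiplicity
    have hk1 : (Nat.card G).factorization p = 1 := by
      have hpos : 0 < (Nat.card G).factorization p :=
        hpp.factorization_pos_of_dvd Nat.card_pos.ne' hp
      by_contra hne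
      have h2 : 2 ≤ (Nat.card G).factorization p := by omega
      exact hp2 ((pow_dvd_pow p h2).trans (Nat.ordProj_dvd _ _))
    rw [hk1, pow_one] at hcard
    haveI : IsCyclic (P : Subgroup G) := isCyclic_of_prime_card hcard
    letI := IsCyclic.commGroup (α := (P : Subgroup G))
    intro x y
    exact mul_comm x y
  · -- find a nonprincipal character of degree < p
    let triv : IrrCharacter G := ⟨fun _ => 1, isIrrCharacter_one⟩
    have hd : ∀ ψ : IrrCharacter G, ∃ k : ℕ, (ψ : G → ℂ) 1 = k := fun ψ => by
      obtain ⟨k, _, hk, _⟩ := irr_degree_dvd ψ; exact ⟨k, hk⟩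
    choose d hd' using hd
    have hsq : ∑ ψ : IrrCharacter G, d ψ ^ 2 = Nat.card G := by
      have : ((∑ ψ : IrrCharacter G, d ψ ^ 2 : ℕ) : ℂ) = (Nat.card G : ℂ) := by
        rw [← sum_irr_sq]; push_cast
        exact Finset.sum_congr rfl fun ψ _ => by rw [hd' ψ]
      exact_mod_cast this
    have hdt : d triv = 1 := by
      have : (d triv : ℂ) = 1 := by rw [← hd' triv]
      exact_mod_cast this
    have hex : ∃ χ : IrrCharacter G, χ ≠ triv ∧ d χ < p := by
      by_contra hcon
      push Not at hcon
      have hk : Fintype.card (IrrCharacter G) = Nat.card (ConjClasses G) := by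
        rw [← Nat.card_eq_fintype_card, card_irrCharacter]
      have h1 : 1 + (Fintype.card (IrrCharacter G) - 1) * p ^ 2 ≤ Nat.card G := by
        rw [← hsq, ← Finset.add_sum_erase Finset.univ _ (Finset.mem_univ triv), hdt, one_pow]
        refine Nat.add_le_add_left ?_ 1
        calc (Fintype.card (IrrCharacter G) - 1) * p ^ 2
            = ∑ _ψ ∈ Finset.univ.erase triv, p ^ 2 := by
              rw [Finset.sum_const, Finset.card_erase_of_mem (Finset.mem_univ _), Finset.card_univ,
                smul_eq_mul]
          _ ≤ ∑ ψ ∈ Finset.univ.erase triv, d ψ ^ 2 :=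
              Finset.sum_le_sum fun ψ hψ => Nat.pow_le_pow_left (hcon ψ (Finset.ne_of_mem_erase hψ)) 2
      obtain ⟨t, ht⟩ := hp2
      rw [hk] at h1
      rw [ht] at hmany h1
      have hlt : t < Nat.card (ConjClasses G) := Nat.lt_of_mul_lt_mul_left hmany
      have hle : t ≤ Nat.card (ConjClasses G) - 1 := by omega
      have : p ^ 2 * t ≤ (Nat.card (ConjClasses G) - 1) * p ^ 2 := by
        rw [mul_comm]; exact Nat.mul_le_mul_right _ hle
      omega
    obtain ⟨χ, hne, hlt⟩ := hex
    obtain ⟨n, ρ, hirr, hch⟩ := χ.2
    haveI := hirr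
    have hfr : finrank ℂ (Fin n → ℂ) = d χ := by
      have : (finrank ℂ (Fin n → ℂ) : ℂ) = d χ := by
        rw [← Representation.char_one ρ, hch, hd' χ]
      exact_mod_cast this
    have hinj : Function.Injective ρ := by
      rcases (MonoidHom.normal_ker (ρ : G →* End ℂ (Fin n → ℂ))).eq_bot_or_eq_top with hbot | htop
      · exact (MonoidHom.ker_eq_bot_iff _).mp hbot
      · exfalso
        have htriv : ∀ x, ρ x = 1 := by
          intro x
          have : x ∈ MonoidHom.ker (ρ : G →* End ℂ (Fin n → ℂ)) := by rw [htop]; trivial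
          exact this
        have h1 := finrank_eq_one_of_trivial ρ htriv
        apply hne
        apply Subtype.ext
        rw [← hch]
        funext x
        change LinearMap.trace ℂ _ (ρ x) = 1
        rw [htriv x, LinearMap.trace_one, h1]; simp
    let ρP : Representation ℂ (P : Subgroup G) (Fin n → ℂ) := ρ.comp (P : Subgroup G).subtype
    refine comm_of_faithful_small_degree ρP ?_ ?_
    · intro x y hxy
      exact Subtype.ext (hinj hxy)
    · intro q hq hqd
      rw [hfr]
      obtain ⟨k, hk⟩ := (IsPGroup.iff_card.mp P.2)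
      rw [hk] at hqd
      have : q = p := (Nat.prime_dvd_prime_iff_eq hq hpp).mp (hq.dvd_of_dvd_pow hqd)
      rw [this]; exact hlt

end Cfsg.Agent.CharLib.L
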